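import Mathlib

/-! The algebraic core of the theorem of Feit and Higman: a matrix representation of a Hecke
algebra of dihedral type in which the basis elements other than `1` have trace zero. -/

set_option autoImplicit false

namespace Cfsg.Agent.H41.FH

open Matrix Finset

/-- the alternating product `a b a ⋯` with `k` factors -/
def alt {M : Type*} [Monoid M] (a b : M) : ℕ → M
  | 0 => 1
  | k + 1 => a * alt b a k

section monoid
variable {M : Type*} [Monoid M]

@[simp] theorem alt_zero (a b : M) : alt a b 0 = 1 := by rw [alt]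

theorem alt_succ (a b : M) (k : ℕ) : alt a b (k + 1) = a * alt b a k := by rw [alt]

theorem alt_even (a b : M) (i : ℕ) : alt a b (2 * i) = (a * b) ^ i := by
  induction i with
  | zero => simp
  | succ i ih => rw [show 2 * (i + 1) = 2 * i + 1 + 1 by ring, alt_succ, alt_succ, ih, pow_succ', mul_assoc]

theorem alt_odd (a b : M) (i : ℕ) : alt a b (2 * i + 1) = a * (b * a) ^ i := by
  rw [alt_succ, alt_even]

theorem alt_odd' (a b : M) (i : ℕ) : alt a b (2 * i + 1) = (a * b) ^ i * a := by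
  rw [alt_odd, mul_pow_mul]

theorem alt_succ' (a b : M) (k : ℕ) : alt a b (k + 1) = alt a b k * (if Even k then a else b) := by
  rcases Nat.even_or_odd' k with ⟨i, rfl | rfl⟩
  · rw [alt_odd', alt_even, if_pos (even_two_mul i)]
  · rw [show 2 * i + 1 + 1 = 2 * (i + 1) by ring, alt_even, alt_odd',
      if_neg (Nat.not_even_iff_odd.2 (odd_two_mul_add_one i)), pow_succ, mul_assoc]

end monoid

abbrev M2 := Matrix (Fin 2) (Fin 2) ℂ

section algebra
variable {A : Type*} [Ring A] [Algebra ℂ A]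

theorem alt_smul (c d : ℂ) (a b : A) (k : ℕ) : alt (c • a) (d • b) k = alt c d k • alt a b k := by
  induction k generalizing c d a b with
  | zero => simp
  | succ k ih => rw [alt_succ, alt_succ, alt_succ, ih, smul_mul_smul_comm]

/-- the sum over the dihedral group of the basis elements with matrix coefficients -/
noncomputable def zz (R S : A) (R' S' : M2) (m : ℕ) (j : Fin 2) : A :=
  ∑ k ∈ range m, (alt S' R' k j 0 • alt S R k + alt R' S' (k + 1) j 0 • alt R S (k + 1))

theorem zz_symm {R S : A} {R' S' : M2} {m : ℕ} (h : alt R S m = alt S R m)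
    (h' : alt R' S' m = alt S' R' m) (j : Fin 2) : zz R S R' S' m j = zz S R S' R' m j := by
  have e1 := sum_range_succ (fun k => alt R' S' k j 0 • alt R S k) m
  have e2 := sum_range_succ' (fun k => alt R' S' k j 0 • alt R S k) m
  have e3 := sum_range_succ (fun k => alt S' R' k j 0 • alt S R k) m
  have e4 := sum_range_succ' (fun k => alt S' R' k j 0 • alt S R k) m
  rw [e1] at e2
  rw [e3, ← h, ← h'] at e4
  simp only [alt_zero] at e2 e4
  rw [zz, zz, sum_add_distrib, sum_add_distrib, eq_sub_of_add_eq e2.symm, eq_sub_of_add_eq e4.symm]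
  abel

theorem mul_zz {R S : A} {R' S' : M2} {p : ℂ} (hR : R * R = (p - 1) • R + p • 1)
    (hR' : p • (R' * R') = (p - 1) • R' + 1) (m : ℕ) (j : Fin 2) :
    R * zz R S R' S' m j = ∑ i, (p * R' j i) • zz R S R' S' m i := by
  simp only [zz, mul_sum, smul_sum]
  rw [sum_comm]
  refine sum_congr rfl fun k _ => ?_
  rw [alt_succ, alt_succ]
  set P := alt S' R' k
  set T := alt S R k
  have e := congrFun (congrFun (congrArg (· * P) hR') j) 0
  simp only [smul_mul_assoc, add_mul, one_mul, mul_assoc, Matrix.smul_apply, Matrix.add_apply,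
    smul_eq_mul] at e
  rw [Matrix.mul_apply, Fin.sum_univ_two] at e
  have e' : (R' * P) j 0 = R' j 0 * P 0 0 + R' j 1 * P 1 0 := by
    rw [Matrix.mul_apply, Fin.sum_univ_two]
  rw [mul_add, mul_smul_comm, mul_smul_comm, ← mul_assoc, hR, Fin.sum_univ_two, add_mul,
    smul_mul_assoc, smul_mul_assoc, one_mul]
  have e'' : P j 0 = p * (R' j 0 * (R' * P) 0 0 + R' j 1 * (R' * P) 1 0) - (p - 1) * (R' * P) j 0 := by
    rw [e]; ring
  rw [e'', e']
  module

theorem alt_mul {R S : A} {ρ σ : M2} {z : Fin 2 → A} (hR : ∀ j, R * z j = ∑ i, ρ i j • z i)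
    (hS : ∀ j, S * z j = ∑ i, σ i j • z i) (k : ℕ) (j : Fin 2) :
    alt R S k * z j = ∑ i, alt ρ σ k i j • z i := by
  induction k generalizing R S ρ σ with
  | zero => fin_cases j <;> simp
  | succ k ih =>
    rw [alt_succ, alt_succ, mul_assoc, ih hS hR]
    simp only [Fin.sum_univ_two, mul_add, mul_smul_comm, hR, Matrix.mul_apply]
    module

theorem zz_mul {R S : A} {ρ σ : M2} {z : Fin 2 → A} (hR : ∀ j, R * z j = ∑ i, ρ i j • z i)
    (hS : ∀ j, S * z j = ∑ i, σ i j • z i) (R' S' : M2) (m : ℕ) (l j : Fin 2) :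
    zz R S R' S' m l * z j = ∑ i, zz ρ σ R' S' m l i j • z i := by
  simp only [zz, sum_mul, Matrix.sum_apply, sum_smul]
  rw [sum_comm]
  refine sum_congr rfl fun k _ => ?_
  rw [add_mul, smul_mul_assoc, smul_mul_assoc, alt_mul hR hS, alt_mul hS hR]
  simp only [Fin.sum_univ_two, Matrix.add_apply, Matrix.smul_apply, smul_eq_mul]
  module

theorem zz_mod {R S : A} {R' S' ρ σ : M2} {p q : ℂ} {m : ℕ} (hR : R * R = (p - 1) • R + p • 1)
    (hS : S * S = (q - 1) • S + q • 1) (b : alt R S m = alt S R m)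
    (hR' : p • (R' * R') = (p - 1) • R' + 1) (hS' : q • (S' * S') = (q - 1) • S' + 1)
    (b' : alt R' S' m = alt S' R' m) (eR : ∀ i j, p * R' j i = ρ i j)
    (eS : ∀ i j, q * S' j i = σ i j) :
    (∀ j, R * zz R S R' S' m j = ∑ i, ρ i j • zz R S R' S' m i) ∧
      (∀ j, S * zz R S R' S' m j = ∑ i, σ i j • zz R S R' S' m i) := by
  refine ⟨fun j => ?_, fun j => ?_⟩
  · rw [mul_zz hR hR']
    exact sum_congr rfl fun i _ => by rw [eR]
  · rw [zz_symm b b', mul_zz hS hS']
    exact sum_congr rfl fun i _ => by rw [eS, zz_symm b b']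

end algebra

theorem alt_transpose {a b : M2} {m : ℕ} (h : alt a b m = alt b a m) :
    alt aᵀ bᵀ m = alt bᵀ aᵀ m := by
  have := congrArg transpose h
  rcases Nat.even_or_odd' m with ⟨i, rfl | rfl⟩
  · rw [alt_even, alt_even, transpose_pow, transpose_pow, transpose_mul, transpose_mul] at this
    rw [alt_even, alt_even, this]
  · rw [alt_odd, alt_odd, transpose_mul, transpose_mul, transpose_pow, transpose_pow, transpose_mul,
      transpose_mul] at this
    rw [alt_odd', alt_odd', this]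

theorem alt_inv (c d : ℂ) (k : ℕ) : alt c⁻¹ d⁻¹ k = (alt c d k)⁻¹ := by
  induction k generalizing c d with
  | zero => simp
  | succ k ih => rw [alt_succ, alt_succ, ih, mul_inv]

theorem rat_of_sq {X : Type*} [Fintype X] [DecidableEq X] [Nonempty X] {z : Matrix X X ℂ} {c : ℂ}
    (h : z * z = c • z) (ht : z.trace = Fintype.card X) : ∃ r : ℚ, c = r := by
  have hN : (Fintype.card X : ℂ) ≠ 0 := Nat.cast_ne_zero.2 Fintype.card_ne_zero
  have hc : c ≠ 0 := by
    rintro rfl
    have : IsNilpotent z := ⟨2, by rw [pow_two, h, zero_smul]⟩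
    exact hN (ht ▸ (Matrix.isNilpotent_trace_of_isNilpotent this).eq_zero)
  have he : IsIdempotentElem (toLin' (c⁻¹ • z)) := by
    rw [IsIdempotentElem, Module.End.mul_eq_comp, ← toLin'_mul, smul_mul_smul_comm, h, smul_smul,
      inv_mul_cancel_right₀ hc]
  have := (LinearMap.IsIdempotentElem.isProj_range _ he).trace
  rw [trace_toLin'_eq, trace_smul, ht, smul_eq_mul] at this
  set n := Module.finrank ℂ (LinearMap.range (toLin' (c⁻¹ • z)))
  have hn : (n : ℂ) ≠ 0 := by rw [← this]; exact mul_ne_zero (inv_ne_zero hc) hN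
  refine ⟨Fintype.card X / n, ?_⟩
  push_cast
  rw [← this]
  field_simp

/-- the hypotheses on the two generators -/
structure Hyp {X : Type*} [Fintype X] [DecidableEq X] (R S : Matrix X X ℂ) (p q : ℂ) (m : ℕ) :
    Prop where
  hR : R * R = (p - 1) • R + p • 1
  hS : S * S = (q - 1) • S + q • 1
  br : alt R S m = alt S R m
  br' : alt p q m = alt q p m
  tr : ∀ k, k < m → (alt R S (k + 1)).trace = 0 ∧ (alt S R (k + 1)).trace = 0
  pos : 0 < m
  hp : p ≠ 0
  hq : q ≠ 0

theorem Hyp.core {X : Type*} [Fintype X] [DecidableEq X] [Nonempty X] {R S : Matrix X X ℂ}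
    {p q : ℂ} {m : ℕ} (h : Hyp R S p q m) {ρ σ : M2} {l l' : ℂ}
    (hρ : ρ * ρ = (p - 1) • ρ + p • 1) (hσ : σ * σ = (q - 1) • σ + q • 1)
    (br : alt ρ σ m = alt σ ρ m) (hD : ρ * σ = diagonal ![l, l']) (hl : l * l' = p * q)
    (hne : l ≠ l') (h01 : ρ 0 1 = 1) (ht : σ 0 1 * σ 1 0 / q = ρ 1 0 / p) :
    ∃ r : ℚ, ρ 1 0 / p = r := by
  have hp := h.hp
  have hq := h.hq
  have l0 : l ≠ 0 := left_ne_zero_of_mul (hl ▸ mul_ne_zero hp hq)
  have l0' : l' ≠ 0 := right_ne_zero_of_mul (hl ▸ mul_ne_zero hp hq)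
  set R' : M2 := p⁻¹ • ρᵀ with hR'
  set S' : M2 := q⁻¹ • σᵀ with hS'
  have quad : ∀ {p : ℂ} {ρ : M2}, p ≠ 0 → ρ * ρ = (p - 1) • ρ + p • 1 →
      p • ((p⁻¹ • ρᵀ) * (p⁻¹ • ρᵀ)) = (p - 1) • (p⁻¹ • ρᵀ) + 1 := fun {p ρ} hp hρ => by
    rw [smul_mul_smul_comm, ← transpose_mul, hρ, transpose_add, transpose_smul, transpose_smul,
      transpose_one, smul_smul, smul_add, smul_smul, smul_smul, smul_smul,
      show p * (p⁻¹ * p⁻¹) * p = 1 by field_simp, one_smul,
      show p * (p⁻¹ * p⁻¹) * (p - 1) = (p - 1) * p⁻¹ by field_simp]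
  have br' : alt R' S' m = alt S' R' m := by
    rw [hR', hS', alt_smul, alt_smul, alt_transpose br, alt_inv, alt_inv, h.br']
  have eR : ∀ i j, p * R' j i = ρ i j := fun i j => by
    simp only [hR', Matrix.smul_apply, transpose_apply, smul_eq_mul]; field_simp
  have eS : ∀ i j, q * S' j i = σ i j := fun i j => by
    simp only [hS', Matrix.smul_apply, transpose_apply, smul_eq_mul]; field_simp
  obtain ⟨a1, a2⟩ := zz_mod h.hR h.hS h.br (quad hp hρ) (quad hq hσ) br' eR eS
  obtain ⟨b1, b2⟩ := zz_mod hρ hσ br (quad hp hρ) (quad hq hσ) br' eR eS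
  rw [← hR', ← hS'] at a1 a2 b1 b2
  have sq := zz_mul a1 a2 R' S' m 0 0
  have d := alt_mul b1 b2 2
  have a2' : alt ρ σ 2 = diagonal ![l, l'] := by rw [← hD]; simp [alt_succ]
  rw [a2'] at d
  have E10 : zz ρ σ R' S' m 0 1 0 = 0 := by
    have := congrFun (congrFun (d 0) 1) 0
    simp only [diagonal_mul, Fin.sum_univ_two, Matrix.add_apply, Matrix.smul_apply, smul_eq_mul,
      diagonal_apply_eq, diagonal_apply_ne _ (show (1 : Fin 2) ≠ 0 by decide), cons_val_zero,
      cons_val_one, zero_mul, add_zero] at this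
    exact (mul_eq_zero.1 (show (l - l') * _ = 0 by linear_combination -this)).resolve_left
      (sub_ne_zero.2 hne)
  have E01 : zz ρ σ R' S' m 1 0 0 = 0 := by
    have := congrFun (congrFun (d 1) 0) 0
    simp only [diagonal_mul, Fin.sum_univ_two, Matrix.add_apply, Matrix.smul_apply, smul_eq_mul,
      diagonal_apply_eq, diagonal_apply_ne _ (show (0 : Fin 2) ≠ 1 by decide), cons_val_zero,
      cons_val_one, zero_mul, zero_add] at this
    exact (mul_eq_zero.1 (show (l - l') * _ = 0 by linear_combination this)).resolve_left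
      (sub_ne_zero.2 hne)
  have E00 : zz ρ σ R' S' m 0 0 0 = zz ρ σ R' S' m 1 1 0 := by
    have := congrFun (congrFun (b1 1) 0) 0
    simp only [Matrix.mul_apply, Fin.sum_univ_two, Matrix.add_apply, Matrix.smul_apply, smul_eq_mul,
      E01, h01] at this
    linear_combination -this
  have hD' : S' * R' = diagonal ![l'⁻¹, l⁻¹] := by
    rw [hR', hS', smul_mul_smul_comm, ← transpose_mul, hD, diagonal_transpose, ← diagonal_smul]
    congr 1
    ext i
    fin_cases i
    · simp only [Fin.zero_eta, Pi.smul_apply, cons_val_zero, smul_eq_mul]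
      field_simp
      linear_combination hl
    · simp only [Fin.mk_one, Pi.smul_apply, cons_val_one, cons_val_zero, smul_eq_mul]
      field_simp
      linear_combination hl
  have E11 : zz ρ σ R' S' m 1 1 0 = m * (ρ 1 0 / p) := by
    rw [zz, Matrix.sum_apply, sum_congr rfl (g := fun _ => ρ 1 0 / p), sum_const, card_range,
      nsmul_eq_mul]
    intro k _
    rw [Matrix.add_apply, Matrix.smul_apply, Matrix.smul_apply, smul_eq_mul, smul_eq_mul]
    rcases Nat.even_or_odd' k with ⟨i, rfl | rfl⟩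
    · rw [alt_even S' R', alt_odd R' S', alt_odd' ρ σ, hD, hD', diagonal_pow, diagonal_pow,
        diagonal_apply_ne _ (show (1 : Fin 2) ≠ 0 by decide), mul_diagonal, diagonal_mul,
        show R' 1 0 = p⁻¹ by rw [eq_inv_of_mul_eq_one_right ((eR 0 1).trans h01)]]
      simp only [Pi.pow_apply, cons_val_zero, cons_val_one, inv_pow]
      field_simp
      ring
    · rw [show 2 * i + 1 + 1 = 2 * (i + 1) by ring, alt_even ρ σ, alt_odd' S' R', alt_odd σ ρ, hD,
        hD', diagonal_pow, diagonal_pow, diagonal_pow,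
        diagonal_apply_ne _ (show (1 : Fin 2) ≠ 0 by decide), mul_diagonal, diagonal_mul, ← ht,
        ← eS 0 1]
      simp only [Pi.pow_apply, cons_val_zero, cons_val_one, inv_pow]
      field_simp
      ring
  rw [Fin.sum_univ_two, E10, zero_smul, add_zero, E00, E11] at sq
  have tr : (zz R S R' S' m 0).trace = Fintype.card X := by
    obtain ⟨m, rfl⟩ := Nat.exists_eq_succ_of_ne_zero h.pos.ne'
    rw [zz, trace_sum, sum_range_succ', sum_eq_zero]
    · simp [(h.tr 0 h.pos).1]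
    · intro k hk
      have hk := mem_range.1 hk
      rw [trace_add, trace_smul, trace_smul, (h.tr k (by omega)).2, (h.tr (k + 1) (by omega)).1]
      simp
  obtain ⟨r, hr⟩ := rat_of_sq sq tr
  have m0 : (m : ℂ) ≠ 0 := Nat.cast_ne_zero.2 h.pos.ne'
  refine ⟨r / m, ?_⟩
  push_cast
  rw [← hr]
  field_simp

theorem Hyp.key {X : Type*} [Fintype X] [DecidableEq X] [Nonempty X] {R S : Matrix X X ℂ}
    {p q : ℂ} {m : ℕ} (h : Hyp R S p q m) {l l' : ℂ} (hl : l * l' = p * q) (hne : l ≠ l')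
    (hb : (∃ n, m = 2 * n ∧ l ^ n = l' ^ n) ∨
      ∃ n, m = 2 * n + 1 ∧ p = q ∧ p * l ^ n = l' ^ (n + 1) ∧ p * l' ^ n = l ^ (n + 1)) :
    ∃ r : ℚ, p * (q - 1) ^ 2 + q * (p - 1) ^ 2 + (p - 1) * (q - 1) * (l + l') =
      r * (4 * (p * q) - (l + l') ^ 2) := by
  have hp := h.hp
  have hq := h.hq
  have hd : l - l' ≠ 0 := sub_ne_zero.2 hne
  obtain ⟨x, hx⟩ : ∃ x, x * (l - l') = p * (q - 1) + (p - 1) * l := ⟨_, div_mul_cancel₀ _ hd⟩
  obtain ⟨y, hy⟩ : ∃ y, y * (l - l') = -(p * (q - 1) + (p - 1) * l') := ⟨_, div_mul_cancel₀ _ hd⟩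
  have e1 : x + y = p - 1 := mul_right_cancel₀ hd (by linear_combination hx + hy)
  have e2 : x * l' + y * l = -(p * (q - 1)) :=
    mul_right_cancel₀ hd (by linear_combination l' * hx + l * hy)
  set ρ : M2 := !![x, 1; x * y + p, y] with hρ
  set σ : M2 := !![-y * l / p, l' / p; (x * y + p) * l / p, -x * l' / p] with hσ
  have qρ : ρ * ρ = (p - 1) • ρ + p • 1 := by
    rw [← e1]
    ext i j
    fin_cases i <;> fin_cases j <;> simp [hρ, Matrix.mul_apply, Fin.sum_univ_two] <;> ring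
  have qσ : σ * σ = (q - 1) • σ + q • 1 := by
    have e3 : q - 1 = -(x * l' + y * l) / p := by rw [e2]; field_simp
    have e4 : q = l * l' / p := by rw [hl]; field_simp
    rw [e3]
    nth_rewrite 1 [e4]
    ext i j
    fin_cases i <;> fin_cases j <;> simp [hσ, Matrix.mul_apply, Fin.sum_univ_two] <;> field_simp <;>
      ring
  have hD : ρ * σ = diagonal ![l, l'] := by
    ext i j
    fin_cases i <;> fin_cases j <;> simp [hρ, hσ, Matrix.mul_apply, Fin.sum_univ_two] <;>
      field_simp <;> ring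
  have br : alt ρ σ m = alt σ ρ m := by
    rcases hb with ⟨n, rfl, e⟩ | ⟨n, rfl, rfl, e, e'⟩
    · have inv : (p⁻¹ • (ρ - (p - 1) • 1)) * ρ = 1 := by
        rw [smul_mul_assoc, sub_mul, qρ, smul_mul_assoc, one_mul, add_sub_cancel_left, smul_smul,
          inv_mul_cancel₀ hp, one_smul]
      have sc : (ρ * σ) ^ n = l ^ n • 1 := by
        rw [hD, diagonal_pow]
        ext i j
        fin_cases i <;> fin_cases j <;> simp [e]
      rw [alt_even, alt_even, ← one_mul ((σ * ρ) ^ n), ← inv, mul_assoc, ← mul_pow_mul, sc,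
        smul_mul_assoc (l ^ n), one_mul, mul_smul_comm, inv]
    · have e5 : p * x = -y * l := mul_right_cancel₀ hd (by
        linear_combination p * hx + l * hy - (p - 1) * hl)
      have e6 : p * y = -x * l' := mul_right_cancel₀ hd (by
        linear_combination p * hy + l' * hx + (p - 1) * hl)
      rw [alt_odd', alt_odd, hD, diagonal_pow]
      ext i j
      rw [diagonal_mul, mul_diagonal]
      fin_cases i <;> fin_cases j <;> simp [hρ, hσ] <;> field_simp
      · linear_combination l ^ n * e5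
      · linear_combination e
      · linear_combination (x * y + p) * e'
      · linear_combination l' ^ n * e6
  obtain ⟨r, hr⟩ := h.core qρ qσ br hD hl hne (by simp [hρ]) (by
    simp only [hρ, hσ, of_apply, cons_val', cons_val_one, cons_val_zero, cons_val_fin_one]
    field_simp
    linear_combination (x * y + p) * hl)
  simp only [hρ, of_apply, cons_val', cons_val_one, cons_val_zero, cons_val_fin_one] at hr
  refine ⟨r - 1, mul_left_cancel₀ hp ?_⟩
  have e7 : x * y = p * (r - 1) := by rw [← hr]; field_simp; ring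
  push_cast
  have e8 : (x * (l - l')) * (y * (l - l')) = p * (r - 1) * (l - l') ^ 2 := by rw [← e7]; ring
  rw [hx, hy] at e8
  linear_combination -e8 + (4 * p * (r - 1) - (p - 1) ^ 2) * hl

theorem Hyp.rat {X : Type*} [Fintype X] [DecidableEq X] [Nonempty X] {R S : Matrix X X ℂ}
    {p q m : ℕ} (h : Hyp R S p q m) (hp : 2 ≤ p) (hq : 2 ≤ q) {μ ω : ℂ} (hμ : μ * μ = p * q)
    (ho : Odd m → μ = p ∧ p = q) (hω : ω ^ m = 1) (h2 : ω ^ 2 ≠ 1) :
    ∃ r : ℚ, μ * (ω + ω⁻¹) = r := by
  have μ0 : μ ≠ 0 := left_ne_zero_of_mul (hμ ▸ mul_ne_zero h.hp h.hq)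
  have ω0 : ω ≠ 0 := by
    rintro rfl
    rw [zero_pow h.pos.ne'] at hω
    exact zero_ne_one hω
  have p1 : (p : ℂ) - 1 ≠ 0 := sub_ne_zero.2 (by exact_mod_cast (by omega : p ≠ 1))
  have q1 : (q : ℂ) - 1 ≠ 0 := sub_ne_zero.2 (by exact_mod_cast (by omega : q ≠ 1))
  have hl : ∀ ω : ℂ, ω ≠ 0 → μ * ω * (μ * ω⁻¹) = p * q := fun ω ω0 => by
    rw [← hμ]; field_simp
  have hne : ∀ ω : ℂ, ω ≠ 0 → ω ^ 2 ≠ 1 → μ * ω ≠ μ * ω⁻¹ := fun ω ω0 h2 e => h2 (by
    have := mul_left_cancel₀ μ0 e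
    rw [pow_two]
    nth_rewrite 2 [this]
    exact mul_inv_cancel₀ ω0)
  rcases Nat.even_or_odd' m with ⟨n, rfl | rfl⟩
  · have ev : ∀ ω : ℂ, ω ≠ 0 → ω ^ (2 * n) = 1 → (μ * ω) ^ n = (μ * ω⁻¹) ^ n := fun ω ω0 e => by
      rw [mul_pow, mul_pow, inv_pow, eq_inv_of_mul_eq_one_left (show ω ^ n * ω ^ n = 1 by
        rw [← pow_add, ← two_mul, e]), inv_inv]
      rw [← eq_inv_of_mul_eq_one_left (show ω ^ n * ω ^ n = 1 by rw [← pow_add, ← two_mul, e])]
    obtain ⟨r, hr⟩ := h.key (hl ω ω0) (hne ω ω0 h2) (Or.inl ⟨n, rfl, ev ω ω0 hω⟩)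
    obtain ⟨r', hr'⟩ := h.key (hl (-ω) (neg_ne_zero.2 ω0)) (hne (-ω) (neg_ne_zero.2 ω0)
      (by rwa [neg_sq])) (Or.inl ⟨n, rfl, ev _ (neg_ne_zero.2 ω0) (by
        rw [pow_mul, neg_sq, ← pow_mul, hω])⟩)
    rw [inv_neg, mul_neg, mul_neg, ← neg_add, neg_sq, ← mul_add] at hr'
    rw [← mul_add] at hr
    set α := μ * (ω + ω⁻¹)
    set y := 4 * ((p : ℂ) * q) - α ^ 2
    have A0 : (p : ℂ) * (q - 1) ^ 2 + q * (p - 1) ^ 2 ≠ 0 := by
      have : (0 : ℝ) < p * (q - 1) ^ 2 + q * (p - 1) ^ 2 := by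
        have h1 : (2 : ℝ) ≤ p := by exact_mod_cast hp
        have h2 : (2 : ℝ) ≤ q := by exact_mod_cast hq
        have h3 : (0 : ℝ) < p - 1 := by linarith
        have h4 : (0 : ℝ) < q - 1 := by linarith
        positivity
      exact_mod_cast this.ne'
    have r0 : (r : ℂ) + r' ≠ 0 := fun e => A0 (by linear_combination (hr + hr') / 2 + y / 2 * e)
    refine ⟨(r - r') * (p * (q - 1) ^ 2 + q * (p - 1) ^ 2) / ((r + r') * ((p - 1) * (q - 1))), ?_⟩
    push_cast
    rw [eq_div_iff (mul_ne_zero r0 (mul_ne_zero p1 q1))]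
    linear_combination r' * hr - r * hr'
  · obtain ⟨rfl, rfl⟩ := ho (odd_two_mul_add_one n)
    obtain ⟨r, hr⟩ := h.key (hl ω ω0) (hne ω ω0 h2) (Or.inr ⟨n, rfl, rfl, by
      rw [mul_pow, mul_pow, inv_pow, eq_inv_of_mul_eq_one_left (show ω ^ n * ω ^ (n + 1) = 1 by
        rw [← pow_add, ← hω]; congr 1; ring)]; ring, by
      rw [mul_pow, mul_pow, inv_pow, eq_inv_of_mul_eq_one_left (show ω ^ (n + 1) * ω ^ n = 1 by
        rw [← pow_add, ← hω]; congr 1; ring)]; ring⟩)
    rw [← mul_add] at hr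
    have y0 : 2 * (p : ℂ) + p * (ω + ω⁻¹) ≠ 0 := fun e => h2 (by
      have e1 : (ω + 1) ^ 2 = 0 := by
        have := mul_left_cancel₀ h.hp (show (p : ℂ) * (2 + (ω + ω⁻¹)) = p * 0 by
          linear_combination e)
        field_simp at this
        linear_combination this
      rw [eq_neg_of_add_eq_zero_left (pow_eq_zero_iff two_ne_zero |>.1 e1)]
      norm_num)
    set α := (p : ℂ) * (ω + ω⁻¹)
    have e : ((p : ℂ) - 1) ^ 2 = r * (2 * p - α) :=
      mul_left_cancel₀ y0 (by linear_combination hr)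
    have r0 : (r : ℂ) ≠ 0 := fun e0 => pow_ne_zero 2 p1 (by rw [e, e0, zero_mul])
    refine ⟨2 * p - (p - 1) ^ 2 / r, ?_⟩
    push_cast
    rw [e]
    field_simp
    ring

open Complex Real in
theorem exp_add_inv (n : ℕ) :
    cexp (2 * π * I / n) + (cexp (2 * π * I / n))⁻¹ = (2 * Real.cos (((2 / n : ℚ) : ℝ) * π) : ℝ) := by
  push_cast
  rw [Complex.two_cos, ← Complex.exp_neg]
  congr 2 <;> ring

open Complex Real in
theorem niven' {n : ℕ} (hn : 2 ≤ n) {r : ℚ}
    (h : cexp (2 * π * I / n) + (cexp (2 * π * I / n))⁻¹ = r) : n = 2 ∨ n = 3 ∨ n = 4 ∨ n = 6 := by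
  rw [exp_add_inv] at h
  have h1 : 2 * Real.cos (((2 / n : ℚ) : ℝ) * π) = r := by exact_mod_cast h
  have n2 : (2 : ℚ) ≤ n := by exact_mod_cast hn
  have n0 : (n : ℚ) ≠ 0 := by linarith
  have := niven_angle_div_pi_eq (r := 2 / n) ⟨r / 2, by push_cast at h1 ⊢; linarith⟩
    ⟨by positivity, by rw [div_le_one (by linarith)]; exact n2⟩
  simp only [Set.mem_insert_iff, Set.mem_singleton_iff] at this
  rcases this with e | e | e | e | e
  · simp [n0] at e
  · field_simp at e
    exact Or.inr (Or.inr (Or.inr (by exact_mod_cast (by linarith : (n : ℚ) = 6))))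
  · field_simp at e
    exact Or.inr (Or.inr (Or.inl (by exact_mod_cast (by linarith : (n : ℚ) = 4))))
  · field_simp at e
    exact Or.inr (Or.inl (by exact_mod_cast (by linarith : (n : ℚ) = 3)))
  · field_simp at e
    exact Or.inl (by exact_mod_cast (by linarith : (n : ℚ) = 2))

open Complex Real in
theorem Hyp.main {X : Type*} [Fintype X] [DecidableEq X] [Nonempty X] {R S : Matrix X X ℂ}
    {p q m : ℕ} (h : Hyp R S p q m) (hp : 2 ≤ p) (hq : 2 ≤ q) (hm : 2 ≤ m) :
    m = 2 ∨ m = 3 ∨ m = 4 ∨ m = 6 ∨ m = 8 := by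
  by_cases m2 : m = 2
  · exact Or.inl m2
  have pr := Complex.isPrimitiveRoot_exp m (by omega)
  have h2 := pr.pow_ne_one_of_pos_of_lt two_ne_zero (by omega : 2 < m)
  rcases Nat.even_or_odd' m with ⟨n, rfl | rfl⟩
  · obtain ⟨μ, hμ⟩ := IsAlgClosed.exists_eq_mul_self ((p : ℂ) * q)
    have no : Odd (2 * n) → μ = p ∧ p = q := fun o =>
      absurd o (Nat.not_odd_iff_even.2 (even_two_mul n))
    obtain ⟨r, hr⟩ := h.rat hp hq hμ.symm no pr.pow_eq_one h2
    set ω := cexp (2 * π * I / (2 * n : ℕ)) with hω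
    have ω0 : ω ≠ 0 := exp_ne_zero _
    have n0 : (n : ℂ) ≠ 0 := Nat.cast_ne_zero.2 (by omega)
    have sq : ω ^ 2 = cexp (2 * π * I / n) := by
      rw [hω, ← Complex.exp_nat_mul]
      congr 1
      push_cast
      field_simp
    have pq : (p : ℂ) * q ≠ 0 := mul_ne_zero h.hp h.hq
    have e : (r : ℂ) ^ 2 = p * q * (ω ^ 2 + (ω ^ 2)⁻¹ + 2) := by
      rw [← hr, hμ]; field_simp; ring
    have := niven' (n := n) (by omega) (r := r ^ 2 / (p * q) - 2) (by
      push_cast
      rw [← sq, e, mul_div_cancel_left₀ _ pq]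
      ring)
    rcases this with rfl | rfl | rfl | rfl
    · omega
    · omega
    · omega
    exfalso
    obtain ⟨r', hr'⟩ := h.rat hp hq hμ.symm no (ω := ω ^ 2)
      (by rw [← pow_mul, mul_comm, pow_mul, pr.pow_eq_one, one_pow])
      (by rw [← pow_mul]; exact pr.pow_ne_one_of_pos_of_lt (by norm_num) (by norm_num))
    have one : ω ^ 2 + (ω ^ 2)⁻¹ = 1 := by
      rw [sq, exp_add_inv, show (((2 / (6 : ℕ) : ℚ)) : ℝ) * π = π / 3 by push_cast; ring,
        Real.cos_pi_div_three]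
      norm_num
    rw [one, mul_one] at hr'
    rw [one, hμ, hr'] at e
    have r0 : r' ≠ 0 := by
      rintro rfl
      rw [hr'] at hμ
      exact pq (by simpa using hμ)
    have e' : r ^ 2 = r' * r' * (1 + 2) := by exact_mod_cast e
    refine Nat.prime_three.irrational_sqrt ⟨|r / r'|, ?_⟩
    rw [eq_comm, Real.sqrt_eq_iff_mul_self_eq (by positivity) (by positivity)]
    have : |r / r'| * |r / r'| = 3 := by
      rw [abs_mul_abs_self]
      field_simp
      linear_combination e'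
    exact_mod_cast this.symm
  · have pq : p = q := by
      have := h.br'
      rw [alt_odd', alt_odd', mul_comm (q : ℂ)] at this
      exact_mod_cast mul_left_cancel₀ (pow_ne_zero _ (mul_ne_zero h.hp h.hq)) this
    obtain ⟨r, hr⟩ := h.rat hp hq (μ := p) (by rw [pq]) (fun _ => ⟨rfl, pq⟩) pr.pow_eq_one h2
    have := niven' hm (r := r / p) (by
      rw [Rat.cast_div, Rat.cast_natCast, ← hr, mul_div_cancel_left₀ _ h.hp])
    omega

end Cfsg.Agent.H41.FH
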